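/-
Congruence classes modulo 2 of short vectors in an even lattice without roots.
-/
import Mathlib

set_option autoImplicit false

namespace CfsgLib.Lattice24

open Matrix Finset

variable {n : ℕ} {B : Matrix (Fin n) (Fin n) ℤ}

/-- Integral even positive definite symmetric form without vectors of norm 2. -/
structure EvenRootless (B : Matrix (Fin n) (Fin n) ℤ) : Prop where
  symm : B.IsSymm
  pos : ∀ x : Fin n → ℤ, x ≠ 0 → 0 < x ⬝ᵥ (B *ᵥ x)
  even : ∀ x : Fin n → ℤ, (2 : ℤ) ∣ x ⬝ᵥ (B *ᵥ x)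
  noRoot : ∀ x : Fin n → ℤ, x ⬝ᵥ (B *ᵥ x) ≠ 2

theorem bil_comm (hB : B.IsSymm) (x y : Fin n → ℤ) : x ⬝ᵥ (B *ᵥ y) = y ⬝ᵥ (B *ᵥ x) := by
  rw [dotProduct_mulVec, ← mulVec_transpose, dotProduct_comm, hB.eq]

theorem four_le (h : EvenRootless B) {z : Fin n → ℤ} (hz : z ≠ 0) :
    4 ≤ z ⬝ᵥ (B *ᵥ z) := by
  have h1 := h.pos z hz
  have h2 := h.even z
  have h3 := h.noRoot z
  omega

/-- Congruent short vectors are equal up to sign or orthogonal of norm 8. -/
theorem congr_short (h : EvenRootless B) {x y : Fin n → ℤ}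
    (hx : x ⬝ᵥ (B *ᵥ x) ≤ 8) (hy : y ⬝ᵥ (B *ᵥ y) ≤ 8) (hc : ∀ i, (2 : ℤ) ∣ (x - y) i) :
    y = x ∨ y = -x ∨
      (x ⬝ᵥ (B *ᵥ x) = 8 ∧ y ⬝ᵥ (B *ᵥ y) = 8 ∧ x ⬝ᵥ (B *ᵥ y) = 0) := by
  classical
  choose z hz using hc
  set w : Fin n → ℤ := y + z with hw
  have hxe : x = z + w := by
    funext i; have h' := hz i; simp only [Pi.sub_apply] at h'; simp only [hw, Pi.add_apply]; omega
  have hye : y = w - z := by simp [hw]
  by_cases hz0 : z = 0
  · left; rw [hxe, hye, hz0]; simp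
  by_cases hw0 : w = 0
  · right; left; rw [hxe, hye, hw0]; simp
  right; right
  have hzz := four_le h hz0
  have hww := four_le h hw0
  have hsym := bil_comm h.symm w z
  have hye' : y = w - z := hye
  clear_value w
  subst hxe
  subst hye'
  simp only [mulVec_add, mulVec_sub, add_dotProduct, sub_dotProduct, dotProduct_add,
    dotProduct_sub] at hx hy ⊢
  omega

/-- Reduction modulo 2. -/
def red (x : Fin n → ℤ) : Fin n → ZMod 2 := fun i => (x i : ZMod 2)

theorem red_eq_iff {x y : Fin n → ℤ} : red x = red y ↔ ∀ i, (2 : ℤ) ∣ (x - y) i := by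
  simp only [red, funext_iff, ZMod.intCast_eq_intCast_iff_dvd_sub, Pi.sub_apply]
  constructor <;> intro h i <;> have := h i <;> omega

theorem fibre_le_two (h : EvenRootless B) (S : Finset (Fin n → ℤ)) (a : ℤ) (ha : a < 8)
    (hS : ∀ x ∈ S, x ⬝ᵥ (B *ᵥ x) = a) (c : Fin n → ZMod 2) :
    (S.filter (fun x => red x = c)).card ≤ 2 := by
  classical
  rcases (S.filter (fun x => red x = c)).eq_empty_or_nonempty with he | ⟨x, hx⟩
  · simp [he]
  · refine le_trans (card_le_card (t := {x, -x}) fun y hy => ?_) (card_le_two)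
    simp only [mem_filter] at hx hy
    rcases congr_short h (x := x) (y := y) (by rw [hS x hx.1]; omega) (by rw [hS y hy.1]; omega)
      (red_eq_iff.1 (hx.2.trans hy.2.symm)) with e | e | e
    · simp [e]
    · simp [e]
    · exact absurd e.1 (by rw [hS x hx.1]; omega)

theorem fibre_le_frame (h : EvenRootless B) (S : Finset (Fin n → ℤ))
    (hS : ∀ x ∈ S, x ⬝ᵥ (B *ᵥ x) = 8) (c : Fin n → ZMod 2) :
    (S.filter (fun x => red x = c)).card ≤ 2 * n := by
  classical
  set F := S.filter (fun x => red x = c) with hF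
  set p : (Fin n → ℤ) → Finset (Fin n → ℤ) := fun x => {x, -x} with hp
  set P := F.image p with hP
  have h1 : F.card ≤ 2 * P.card := by
    refine card_le_mul_card_image F 2 fun s hs => ?_
    obtain ⟨x, _, rfl⟩ := Finset.mem_image.1 hs
    refine le_trans (card_le_card (t := {x, -x}) fun y hy => ?_) card_le_two
    have : p y = p x := (mem_filter.1 hy).2
    have hy' : y ∈ p y := by simp [hp]
    rw [this] at hy'
    exact hy'
  have hr : ∀ s : P, ∃ x ∈ F, p x = s := fun s => Finset.mem_image.1 s.2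
  choose r hr hr' using hr
  have li : LinearIndependent ℤ r := by
    rw [Fintype.linearIndependent_iff]
    intro g hg j
    have h0 := congrArg (fun v => v ⬝ᵥ (B *ᵥ r j)) hg
    simp only [sum_dotProduct, smul_dotProduct, zero_dotProduct, smul_eq_mul] at h0
    rw [sum_eq_single j] at h0
    · rw [hS _ (mem_filter.1 (hr j)).1] at h0; omega
    · intro i _ hij
      have hi := mem_filter.1 (hr i)
      have hj := mem_filter.1 (hr j)
      rcases congr_short h (x := r i) (y := r j) (by rw [hS _ hi.1]) (by rw [hS _ hj.1])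
        (red_eq_iff.1 (hi.2.trans hj.2.symm)) with e | e | e
      · exact absurd (Subtype.ext (by rw [← hr' i, ← hr' j, e])) hij
      · exact absurd (Subtype.ext (by rw [← hr' i, ← hr' j, e]; simp [hp, pair_comm])) hij
      · rw [e.2.2, mul_zero]
    · simp
  have h2 := li.fintype_card_le_finrank
  simp only [Fintype.card_coe, Module.finrank_fin_fun] at h2
  omega

/-- Counting: with the vector numbers of the Leech lattice every class of norm-8 vectors has 48
members, and every class modulo 2 holds a vector of norm at most 8. -/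
theorem leech_classes {B : Matrix (Fin 24) (Fin 24) ℤ} (h : EvenRootless B)
    (h4 : {x : Fin 24 → ℤ | x ⬝ᵥ (B *ᵥ x) = 4}.ncard = 196560)
    (h6 : {x : Fin 24 → ℤ | x ⬝ᵥ (B *ᵥ x) = 6}.ncard = 16773120)
    (h8 : {x : Fin 24 → ℤ | x ⬝ᵥ (B *ᵥ x) = 8}.ncard = 398034000) :
    (∀ x : Fin 24 → ℤ, x ⬝ᵥ (B *ᵥ x) = 8 →
      {y : Fin 24 → ℤ | y ⬝ᵥ (B *ᵥ y) = 8 ∧ ∀ i, (2 : ℤ) ∣ (x - y) i}.ncard = 48) ∧
    ∀ x : Fin 24 → ℤ, ∃ y, y ⬝ᵥ (B *ᵥ y) ≤ 8 ∧ ∀ i, (2 : ℤ) ∣ (x - y) i := by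
  classical
  have fin : ∀ k : ℤ, ∀ m : ℕ, m ≠ 0 → {x : Fin 24 → ℤ | x ⬝ᵥ (B *ᵥ x) = k}.ncard = m →
      ∃ S : Finset (Fin 24 → ℤ), S.card = m ∧ ∀ x, x ∈ S ↔ x ⬝ᵥ (B *ᵥ x) = k := by
    intro k m hm hk
    have hf : {x : Fin 24 → ℤ | x ⬝ᵥ (B *ᵥ x) = k}.Finite :=
      Set.finite_of_ncard_ne_zero (by omega)
    exact ⟨hf.toFinset, by rw [← Set.ncard_eq_toFinset_card _ hf, hk], fun x => by simp⟩
  obtain ⟨S4, c4, m4⟩ := fin 4 196560 (by omega) h4
  obtain ⟨S6, c6, m6⟩ := fin 6 16773120 (by omega) h6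
  obtain ⟨S8, c8, m8⟩ := fin 8 398034000 (by omega) h8
  set I0 : Finset (Fin 24 → ZMod 2) := {red 0}
  set I4 := S4.image red
  set I6 := S6.image red
  set I8 := S8.image red
  have b4 : 196560 ≤ 2 * I4.card := c4 ▸ card_le_mul_card_image S4 2
    fun c _ => fibre_le_two h S4 4 (by omega) (fun x hx => (m4 x).1 hx) c
  have b6 : 16773120 ≤ 2 * I6.card := c6 ▸ card_le_mul_card_image S6 2
    fun c _ => fibre_le_two h S6 6 (by omega) (fun x hx => (m6 x).1 hx) c
  have f8 : ∀ c, (S8.filter (fun x => red x = c)).card ≤ 48 :=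
    fun c => fibre_le_frame h S8 (fun x hx => (m8 x).1 hx) c
  have b8 : 398034000 ≤ 48 * I8.card := c8 ▸ card_le_mul_card_image S8 48 fun c _ => f8 c
  have z0 : (0 : Fin 24 → ℤ) ⬝ᵥ (B *ᵥ (0 : Fin 24 → ℤ)) = 0 := zero_dotProduct _
  have dis : ∀ (S T : Finset (Fin 24 → ℤ)) (a b : ℤ), a ≠ b → a ≤ 8 → b ≤ 8 →
      (∀ x ∈ S, x ⬝ᵥ (B *ᵥ x) = a) → (∀ x ∈ T, x ⬝ᵥ (B *ᵥ x) = b) →
      Disjoint (S.image red) (T.image red) := by
    intro S T a b hab ha hb hS hT
    rw [Finset.disjoint_left]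
    intro c hc hc'
    obtain ⟨x, hx, rfl⟩ := Finset.mem_image.1 hc
    obtain ⟨y, hy, e⟩ := Finset.mem_image.1 hc'
    have hxa := hS x hx
    have hyb := hT y hy
    rcases congr_short h (x := x) (y := y) (by omega) (by omega) (red_eq_iff.1 e.symm) with
      r | r | r
    · subst r; omega
    · subst r; simp only [mulVec_neg, dotProduct_neg, neg_dotProduct, neg_neg] at hyb; omega
    · omega
  have hI0 : I0 = ({0} : Finset (Fin 24 → ℤ)).image red := by simp [I0]
  have e0 : ∀ x ∈ ({0} : Finset (Fin 24 → ℤ)), x ⬝ᵥ (B *ᵥ x) = 0 := by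
    intro x hx; rw [Finset.mem_singleton.1 hx, z0]
  have d04 : Disjoint I0 I4 := hI0 ▸ dis _ _ 0 4 (by omega) (by omega) (by omega) e0
    fun x hx => (m4 x).1 hx
  have d06 : Disjoint I0 I6 := hI0 ▸ dis _ _ 0 6 (by omega) (by omega) (by omega) e0
    fun x hx => (m6 x).1 hx
  have d08 : Disjoint I0 I8 := hI0 ▸ dis _ _ 0 8 (by omega) (by omega) (by omega) e0
    fun x hx => (m8 x).1 hx
  have d46 : Disjoint I4 I6 := dis _ _ 4 6 (by omega) (by omega) (by omega)
    (fun x hx => (m4 x).1 hx) fun x hx => (m6 x).1 hx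
  have d48 : Disjoint I4 I8 := dis _ _ 4 8 (by omega) (by omega) (by omega)
    (fun x hx => (m4 x).1 hx) fun x hx => (m8 x).1 hx
  have d68 : Disjoint I6 I8 := dis _ _ 6 8 (by omega) (by omega) (by omega)
    (fun x hx => (m6 x).1 hx) fun x hx => (m8 x).1 hx
  set U := I0 ∪ I4 ∪ I6 ∪ I8
  have hU : U.card = 1 + I4.card + I6.card + I8.card := by
    rw [card_union_of_disjoint (by simp [disjoint_union_left, d08, d48, d68]),
      card_union_of_disjoint (by simp [disjoint_union_left, d06, d46]),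
      card_union_of_disjoint d04, card_singleton]
  have tot : U.card ≤ 16777216 := by
    refine le_trans (card_le_univ _) (le_of_eq ?_)
    rw [Fintype.card_fun, ZMod.card, Fintype.card_fin]
    norm_num
  constructor
  · intro x hx
    have hset : {y : Fin 24 → ℤ | y ⬝ᵥ (B *ᵥ y) = 8 ∧ ∀ i, (2 : ℤ) ∣ (x - y) i}
        = ↑(S8.filter (fun y => red y = red x)) := by
      ext y
      simp only [Set.mem_ofPred_eq, coe_filter, m8]
      exact and_congr_right fun _ => ⟨fun hh => (red_eq_iff.2 hh).symm, fun hh => red_eq_iff.1 hh.symm⟩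
    rw [hset, Set.ncard_coe_finset]
    by_contra hne
    have hlt : S8.card < ∑ _c ∈ I8, 48 := by
      rw [card_eq_sum_card_image red S8]
      exact sum_lt_sum (fun c _ => f8 c)
        ⟨red x, mem_image_of_mem _ ((m8 x).2 hx), lt_of_le_of_ne (f8 _) hne⟩
    rw [sum_const, smul_eq_mul, c8] at hlt
    omega
  · intro x
    have hx : red x ∈ U := by
      by_contra hx
      have := card_lt_card (ssubset_univ_iff.2 fun hu : U = univ => hx (hu ▸ mem_univ _))
      rw [card_univ, Fintype.card_fun, ZMod.card, Fintype.card_fin] at this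
      norm_num at this
      omega
    simp only [U, I0, I4, I6, I8, mem_union, mem_singleton, Finset.mem_image] at hx
    rcases hx with ((hx | ⟨y, hy, e⟩) | ⟨y, hy, e⟩) | ⟨y, hy, e⟩
    · exact ⟨0, by rw [z0]; omega, red_eq_iff.1 hx⟩
    · exact ⟨y, by rw [(m4 y).1 hy]; omega, red_eq_iff.1 e.symm⟩
    · exact ⟨y, by rw [(m6 y).1 hy]; omega, red_eq_iff.1 e.symm⟩
    · exact ⟨y, by rw [(m8 y).1 hy], red_eq_iff.1 e.symm⟩

end CfsgLib.Lattice24
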